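-- Team project SUG (S2412), leaf [GTOR]: the torus element of SU(<e_0, e_1>) (helper13).
import Cfsg.Agent.Lib.Helper60.SUG.GenDefs
import Cfsg.Agent.Lib.Helper13.SUParab
import Cfsg.Agent.Lib.Helper13.SUGen1

set_option autoImplicit false

/-!
# [GTOR]: the hyperbolic dilation `vA ↦ μ vA`, `f ↦ μ⁻¹ f` as an element of `SU_n`
-/

namespace Cfsg.Agent.Lib.Helper13.SUG

open Matrix Cfsg.Agent.Lib.Helper45 Cfsg.Agent.Lib.Helper44 Cfsg.Agent.Lib.Helper13
  Cfsg.Agent.Lib.Helper60.SUG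

universe u

section aux

variable {F : Type u} [Field F] {q n : ℕ}

theorem gtor_herm_supp2 (hn : 2 ≤ n) (a b : Fin n → F) (ha : Supp 2 a) :
    Cfsg.hermForm n F q a b =
      a ⟨0, by omega⟩ * b ⟨0, by omega⟩ ^ q + a ⟨1, by omega⟩ * b ⟨1, by omega⟩ ^ q := by
  unfold Cfsg.hermForm
  apply Fintype.sum_eq_add
  · intro h
    simp [Fin.ext_iff] at h
  · rintro c ⟨h0, h1⟩
    have h2 : 2 ≤ (c : ℕ) := by
      rcases c with ⟨c, hc⟩
      simp only [ne_eq, Fin.mk.injEq] at h0 h1
      show 2 ≤ c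
      omega
    rw [ha c h2, zero_mul]

theorem gtor_herm_zero (hq : q ≠ 0) (a b : Fin n → F) (h : ∀ i, a i = 0 ∨ b i = 0) :
    Cfsg.hermForm n F q a b = 0 := by
  unfold Cfsg.hermForm
  apply Finset.sum_eq_zero
  intro i _
  rcases h i with h1 | h1
  · rw [h1, zero_mul]
  · rw [h1, zero_pow hq, mul_zero]

theorem gtor_hypDil_one (e f : Fin n → F) : hypDil q e f (1 : F) = 1 := by
  unfold hypDil
  simp

theorem gtor_hypDil_mul [Fintype F] (e f : Fin n → F) (a b : F)
    (hee : Cfsg.hermForm n F q e e = 0) (hff : Cfsg.hermForm n F q f f = 0)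
    (hef : Cfsg.hermForm n F q e f = 1) (hfe : Cfsg.hermForm n F q f e = 1) :
    hypDil q e f a * hypDil q e f b = hypDil q e f (a * b) := by
  classical
  apply Matrix.toLin'.injective
  apply LinearMap.ext
  intro x
  rw [Matrix.toLin'_apply, Matrix.toLin'_apply, ← Matrix.mulVec_mulVec,
    hypDil_mulVec e f b hff x, hypDil_mulVec e f a hff, hypDil_mulVec e f (a * b) hff]
  simp only [herm_add_left, herm_smul_left, hee, hff, hef, hfe, mul_zero, add_zero, mul_one,
    mul_pow, mul_inv]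
  module

end aux

theorem pkgGTor : PkgGTor.{u} := by
  intro F _ _ q hF n hn lam μ hlam hμ0 hμq
  classical
  have hq0 : q ≠ 0 := by
    rintro rfl
    have h1 : 0 < Fintype.card F := Fintype.card_pos
    rw [hF] at h1
    norm_num at h1
  obtain ⟨x, hx⟩ := exists_trace_eq hF (-1 : F) (by rw [conj_neg hF, one_pow])
  obtain ⟨e, he⟩ : ∃ e : Fin n → F, e = vA n lam := ⟨_, rfl⟩
  obtain ⟨f, hf⟩ : ∃ f : Fin n → F, f = fun i : Fin n =>
    if (i : ℕ) = 0 then x + 1 else if (i : ℕ) = 1 then lam * x else 0 := ⟨_, rfl⟩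
  have hes : Supp 2 e := by
    intro i hi
    have h6 : (i : ℕ) ≠ 0 := by omega
    have h7 : (i : ℕ) ≠ 1 := by omega
    simp [he, vA, h6, h7]
  have hfs : Supp 2 f := by
    intro i hi
    have h6 : (i : ℕ) ≠ 0 := by omega
    have h7 : (i : ℕ) ≠ 1 := by omega
    simp [hf, h6, h7]
  have e0 : e ⟨0, by omega⟩ = 1 := by simp [he, vA]
  have e1 : e ⟨1, by omega⟩ = lam := by simp [he, vA]
  have f0 : f ⟨0, by omega⟩ = x + 1 := by simp [hf]
  have f1 : f ⟨1, by omega⟩ = lam * x := by simp [hf]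
  have hlamq : lam * lam ^ q = -1 := by rw [← pow_succ']; exact hlam
  have hxq : x ^ q = -1 - x := by linear_combination hx
  have hee : Cfsg.hermForm n F q e e = 0 := by
    rw [gtor_herm_supp2 hn e e hes, e0, e1, one_pow]
    linear_combination hlamq
  have hff : Cfsg.hermForm n F q f f = 0 := by
    rw [gtor_herm_supp2 hn f f hfs, f0, f1, conj_add hF, one_pow, mul_pow, hxq]
    linear_combination (x * (-1 - x)) * hlamq
  have hef : Cfsg.hermForm n F q e f = 1 := by
    rw [gtor_herm_supp2 hn e f hes, e0, e1, f0, f1, conj_add hF, one_pow, mul_pow, hxq]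
    linear_combination (-1 - x) * hlamq
  have hfe : Cfsg.hermForm n F q f e = 1 := by
    rw [gtor_herm_supp2 hn f e hfs, e0, e1, f0, f1, one_pow]
    linear_combination x * hlamq
  have hdet : ∀ a : F, a ≠ 0 → a ^ q = a → (hypDil q e f a).det = 1 := by
    intro a ha0 haq
    rw [det_hypDil e f a hef hfe, haq, mul_inv_cancel₀ ha0]
  obtain ⟨t, ht⟩ : ∃ t : ↥(Cfsg.SU n F q), mat t = hypDil q e f μ :=
    ⟨suMk (hypDil q e f μ) (hdet μ hμ0 hμq) (isHermIso_hypDil hF e f μ hμ0 hee hff hef hfe), rfl⟩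
  have hpow : ∀ k : ℕ, mat (t ^ k) = hypDil q e f (μ ^ k) := by
    intro k
    induction k with
    | zero =>
      rw [pow_zero, pow_zero, gtor_hypDil_one]
      rfl
    | succ k ih =>
      rw [pow_succ, pow_succ, ← gtor_hypDil_mul e f _ _ hee hff hef hfe, ← ih, ← ht]
      rfl
  refine ⟨t, ?_, ?_, ?_, ?_⟩
  · rw [← he, ht, hypDil_mulVec e f μ hff, hef, hee]
    module
  · intro v hv i hi
    rw [ht, hypDil_mulVec e f μ hff]
    simp [hv i hi, hes i hi, hfs i hi]
  · intro v hv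
    have h1 : Cfsg.hermForm n F q v f = 0 := by
      apply gtor_herm_zero hq0
      intro i
      by_cases hi : (i : ℕ) < 2
      · exact Or.inl (hv i hi)
      · exact Or.inr (hfs i (by omega))
    have h2 : Cfsg.hermForm n F q v e = 0 := by
      apply gtor_herm_zero hq0
      intro i
      by_cases hi : (i : ℕ) < 2
      · exact Or.inl (hv i hi)
      · exact Or.inr (hes i (by omega))
    rw [ht, hypDil_mulVec e f μ hff, h1, h2]
    simp
  · apply su_ext
    have h3 := hpow (orderOf μ)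
    rw [pow_orderOf_eq_one, gtor_hypDil_one] at h3
    exact h3

end Cfsg.Agent.Lib.Helper13.SUG
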